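import Mathlib
import Cfsg.Agent.Lib.Orth.Disc
import Cfsg.Agent.Lib.Forms.Normal

/-!
# Centralizers of orthogonal elements of odd order prime to the characteristic

For `g ∈ O(Q)` of odd order prime to `p` (`p` odd, even dimension) the centralizer of `g` contains
similarities with every multiplier, and a rotation of non-square spinor norm.
-/

set_option autoImplicit false

namespace CfsgLib.Inv2

open Module QuadraticMap CfsgLib.Orth

theorem exists_norm_eq {R : Type*} [CommRing R] [Finite R] [IsReduced R] (δ n : R) :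
    ∃ x y ε z : R, δ * ε = δ ∧ ε = δ * z ∧ x * x - δ * (y * y) = n * ε ∧
      x * ε = x ∧ y * ε = y := by
  have key : ∀ (K : Type _) [Field K] [Finite K] (δ n : K), ∃ x y ε z : K,
      δ * ε = δ ∧ ε = δ * z ∧ x * x - δ * (y * y) = n * ε ∧ x * ε = x ∧ y * ε = y := by
    intro K _ _ δ n
    by_cases h : δ = 0
    · exact ⟨0, 0, 0, 0, by simp [h]⟩
    · obtain ⟨x, y, hxy⟩ := exists_sq_add_sq_eq one_ne_zero (neg_ne_zero.2 h) n
      exact ⟨x, y, 1, δ⁻¹, by simp, by simp [h], by linear_combination hxy, by simp, by simp⟩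
  let e := IsArtinianRing.equivPi R
  choose x y ε z h1 h2 h3 h4 h5 using fun m : MaximalSpectrum R =>
    letI := Ideal.Quotient.field m.asIdeal
    haveI : Finite (R ⧸ m.asIdeal) := .of_surjective _ Ideal.Quotient.mk_surjective
    key (R ⧸ m.asIdeal) (e δ m) (e n m)
  refine ⟨e.symm x, e.symm y, e.symm ε, e.symm z, ?_, ?_, ?_, ?_, ?_⟩ <;>
    refine e.injective (funext fun m => ?_) <;>
    simp only [map_mul, map_sub, AlgEquiv.apply_symm_apply, Pi.mul_apply, Pi.sub_apply]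
  exacts [h1 m, h2 m, h3 m, h4 m, h5 m]

theorem exists_field_summand (F R : Type*) [Field F] [CommRing R] [Algebra F R] [Finite R]
    [IsReduced R] [Nontrivial R] : ∃ (m : Ideal R) (_ : m.IsMaximal) (σ : (R ⧸ m) →ₗ[F] R),
      σ 1 ≠ 0 ∧ ∀ (a : R) (x : R ⧸ m), a * σ x = σ (Ideal.Quotient.mk m a * x) ∧
        Ideal.Quotient.mk m (σ x) = x := by
  classical
  obtain ⟨m, hm⟩ := Ideal.exists_maximal R
  let e := IsArtinianRing.equivPi R
  let σ : (R ⧸ m) →ₗ[R] R := e.symm.toLinearMap ∘ₗ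
    LinearMap.single R (fun I : MaximalSpectrum R => R ⧸ I.asIdeal) ⟨m, hm⟩
  have h : ∀ x, Ideal.Quotient.mk m (σ x) = x := fun x => by
    have := congrFun (e.apply_symm_apply (Pi.single ⟨m, hm⟩ x)) ⟨m, hm⟩
    rwa [Pi.single_eq_same] at this
  refine ⟨m, hm, σ.restrictScalars F, fun h0 => ?_, fun a x => ⟨(σ.map_smul a x).symm, h x⟩⟩
  have := h 1
  rw [show σ 1 = 0 from h0, map_zero] at this
  exact zero_ne_one this

variable {F V : Type*} [Field F] [AddCommGroup V] [Module F V] [FiniteDimensional F V]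

theorem det_of_alt_sim (B : LinearMap.BilinForm F V) (hA : B.IsAlt) (hB : B.Nondegenerate)
    {m : ℕ} (hm : finrank F V = 2 * m) (h : V →ₗ[F] V) {d : F} (hd : d ≠ 0)
    (hh : ∀ u v, B (h u) (h v) = d * B u v) : LinearMap.det h = d ^ m := by
  obtain ⟨k, b, h1, h2, h3⟩ := Forms.exists_symplectic_basis B hA hB
  obtain rfl : k = m := by
    have := finrank_eq_card_basis b
    simp at this; omega
  have hJ : LinearMap.BilinForm.toMatrix b B = Matrix.J (Fin k) F := by
    ext (i | i) (j | j) <;> simp [Matrix.J, h1, h2, h3, Matrix.one_apply]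
    rw [← hA.neg_eq, h3]; simp [eq_comm]
  have h4 := LinearMap.BilinForm.toMatrix_comp b b B h h
  rw [show B.comp h h = d • B from LinearMap.BilinForm.ext hh, map_smul, hJ] at h4
  let D : Matrix (Fin k ⊕ Fin k) (Fin k ⊕ Fin k) F := Matrix.fromBlocks (d⁻¹ • 1) 0 0 1
  have h5 := SymplecticGroup.det_eq_one (M := LinearMap.toMatrix b b h * D)
    (SymplecticGroup.mem_iff'.2 (by
      rw [Matrix.transpose_mul, show ∀ X Y Z W U : Matrix (Fin k ⊕ Fin k) (Fin k ⊕ Fin k) F,
        X * Y * Z * (W * U) = X * (Y * Z * W) * U from fun _ _ _ _ _ => by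
          simp only [Matrix.mul_assoc], ← h4]
      simp [D, Matrix.J, Matrix.fromBlocks_transpose, Matrix.fromBlocks_multiply,
        Matrix.fromBlocks_smul, smul_smul, hd]))
  rw [Matrix.det_mul, LinearMap.det_toMatrix, Matrix.det_fromBlocks_zero₂₁] at h5
  simpa [mul_inv_eq_one₀ (pow_ne_zero k hd)] using h5

variable {Q : QuadraticForm F V} (hQ : (polarBilin Q).Nondegenerate) (h2 : (2 : F) ≠ 0)

omit [FiniteDimensional F V] in
include h2 in
theorem Q_eq_of_polar {x y : V} {d : F} (h : polar Q x x = d * polar Q y y) : Q x = d * Q y := by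
  rw [polar_self', polar_self'] at h
  exact mul_left_cancel₀ h2 (by linear_combination h)

include hQ h2 in
theorem exists_sim [Finite F] (he : Even (finrank F V)) {d : F} (hd : d ≠ 0) :
    ∃ b : V ≃ₗ[F] V, ∀ v, Q (b v) = d * Q v := by
  have h3 : ∀ x y, polar (d • Q) x y = d * polar Q x y := fun x y => by
    simp [polar, mul_sub]
  let c := Module.finBasis F V
  obtain ⟨k, hk⟩ := he
  refine exists_equiv_of_isSquare_disc h2 (Q := d • Q) (nondegenerate_of_polar fun x hx =>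
    eq_zero_of_polar hQ fun y => (mul_eq_zero.1 ((h3 x y).symm.trans (hx y))).resolve_left hd)
    hQ c c rfl ⟨d ^ k * (gram Q c).det, ?_⟩
  rw [show gram ⇑(d • Q) c = d • gram Q c from Matrix.ext fun i j => h3 _ _, Matrix.det_smul,
    Fintype.card_fin, show d ^ finrank F V = d ^ k * d ^ k by rw [hk, pow_add]]
  ring

omit [FiniteDimensional F V] in
include h2 in
/-- Minus one on a non-degenerate subspace as a product of reflections. -/
theorem exists_negOn {E : Type*} [AddCommGroup E] [Module F E] [FiniteDimensional F E]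
    (ψ : E →ₗ[F] V) (hψ : (polarBilin (Q.comp ψ)).Nondegenerate) :
    ∃ l : List V, (∀ v ∈ l, Q v ≠ 0) ∧ l.length = finrank F E ∧
      (∀ a, (reflProd Q l).1 (ψ a) = -ψ a) ∧
      (∀ z, (∀ a, polar Q (ψ a) z = 0) → (reflProd Q l).1 z = z) ∧
      (IsSquare (2 ^ finrank F E * (l.map Q).prod) ↔
        IsSquare (gram (Q.comp ψ) (Module.finBasis F E)).det) := by
  obtain ⟨b, hb, hb'⟩ := exists_orth_basis hψ h2
  have h3 : ∀ x y, polar (Q.comp ψ) x y = polar Q (ψ x) (ψ y) := fun x y => by simp [polar]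
  have h4 : ∀ v ∈ List.ofFn (ψ ∘ b), Q v ≠ 0 := by simpa [List.mem_ofFn] using hb'
  refine ⟨List.ofFn (ψ ∘ b), h4, by simp, fun a => ?_, fun z hz => reflProd_apply_of_perp
    (by simpa [List.mem_ofFn] using fun i => hz (b i)), ?_⟩
  · exact LinearMap.congr_fun (b.ext (f₁ := (reflProd Q (List.ofFn (ψ ∘ b))).1.toLinearMap ∘ₗ ψ)
      (f₂ := -ψ) fun i => reflProd_apply_of_pairwise h4 (by
        rw [List.pairwise_ofFn]; exact fun i j hij => (h3 _ _).symm.trans (hb i j hij.ne))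
        _ (by simp [List.mem_ofFn])) a
  · rw [isSquare_det_gram_iff _ b, det_gram_of_orth hb, List.map_ofFn, List.prod_ofFn,
      Fintype.card_fin]
    rfl

section alg

variable {R : Type*} [CommRing R] [Algebra F R] [Finite R] [IsReduced R]
  {ρ : R →ₐ[F] Module.End F V} {s : Module.End F V} {δ : R}
  (hρ : ∀ a v w, polar Q (ρ a v) w = polar Q v (ρ a w))
  (hs : ∀ v w, polar Q (s v) w = -polar Q v (s w)) (hc : ∀ a v, s (ρ a v) = ρ a (s v))
  (hδ : ∀ v, s (s v) = ρ δ v)

omit [FiniteDimensional F V] [Finite R] [IsReduced R] in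
theorem rho_rho (a b : R) (v : V) : ρ a (ρ b v) = ρ (a * b) v := by
  rw [map_mul, Module.End.mul_apply]

omit [FiniteDimensional F V] [Finite R] [IsReduced R] in
include hρ hs hc hδ in
theorem polar_unit (x y : R) (v w : V) :
    polar Q (ρ x v + ρ y (s v)) (ρ x w + ρ y (s w)) = polar Q (ρ (x * x - δ * (y * y)) v) w := by
  rw [polar_add_right, ← hρ, ← hρ, polar_comm _ _ (s w), hs, polar_comm _ w, ← sub_eq_add_neg,
    ← polar_sub_left]
  congr 1
  simp only [map_add, hc, hδ, rho_rho, map_sub, LinearMap.sub_apply]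
  rw [mul_comm x y, mul_comm _ δ]
  abel

include hQ h2 hρ hs hc hδ in
theorem exists_sim_comm [Finite F] {m : ℕ} (hm : finrank F V = 2 * m) (hs2 : ∀ v, s (s v) = 0 → s v = 0)
    {d : F} (hd : d ≠ 0) :
    Even (finrank F (LinearMap.ker s)) ∧ (polarBilin (Q.comp (LinearMap.ker s).subtype)).Nondegenerate ∧
    ∃ h : V →ₗ[F] V, (∀ v, Q (h v) = d * Q v) ∧ (LinearMap.ker s = ⊥ → LinearMap.det h = d ^ m) ∧
      ∀ g : V →ₗ[F] V, (∀ a v, g (ρ a v) = ρ a (g v)) → (∀ v, g (s v) = s (g v)) →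
        (∀ v, s v = 0 → g v = v) → ∀ v, h (g v) = g (h v) := by
  obtain ⟨x, y, ε, z, e1, e2, e3, e4, e5⟩ := exists_norm_eq δ (algebraMap F R d)
  have e0 : ε * ε = ε := by nth_rewrite 1 [e2]; rw [mul_right_comm, e1, ← e2]
  have k1 : ∀ v, s v = 0 → ρ ε v = 0 := fun v h => by
    rw [e2, mul_comm, ← rho_rho, ← hδ, h, map_zero, map_zero]
  have k2 : ∀ v, s (v - ρ ε v) = 0 := fun v => hs2 _ (by rw [hδ, map_sub, rho_rho, e1, sub_self])
  have k3 : ∀ v w, s v = 0 → polar Q v (ρ ε w) = 0 := fun v w h => by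
    rw [← hρ, k1 v h, polar_zero_left]
  have hn : (polarBilin (Q.comp (LinearMap.ker s).subtype)).Nondegenerate :=
    nondegenerate_of_polar fun v hv => Subtype.ext <| eq_zero_of_polar hQ fun w => by
      have := hv ⟨_, k2 w⟩
      change polar Q v.1 (w - ρ ε w) = 0 at this
      rwa [polar_sub_right, k3 _ _ v.2, sub_zero] at this
  have hA : ∀ v, polar Q (s v) v = 0 := fun v => mul_left_cancel₀ h2 (by
    have := hs v v; rw [polar_comm _ v] at this; linear_combination this)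
  have he : Even (finrank F (LinearMap.ker s)) := by
    have hA' : LinearMap.IsAlt
      ((LinearMap.BilinForm.compLeft (polarBilin Q) s).restrict (LinearMap.range s)) := fun v => hA v
    have h3 := Forms.even_finrank_of_alt _ hA'
      (hA'.isRefl.nondegenerate_iff_separatingLeft.2 fun v hv => Subtype.ext <|
        (v.2.choose_spec.symm.trans <| hs2 _ <| hs2 _ <| eq_zero_of_polar hQ fun w => by
          rw [hs, neg_eq_zero, v.2.choose_spec]; exact hv ⟨_, w, rfl⟩))
    have h4 := s.finrank_range_add_finrank_ker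
    obtain ⟨k, hk⟩ := h3
    exact ⟨m - k, by omega⟩
  obtain ⟨b, hb⟩ := exists_sim hn h2 he hd
  let π : V →ₗ[F] LinearMap.ker s := (LinearMap.id - ρ ε).codRestrict _ k2
  let h : V →ₗ[F] V := (LinearMap.ker s).subtype ∘ₗ b.toLinearMap ∘ₗ π + (ρ x + ρ y ∘ₗ s)
  have h3 : ∀ v, h v = b (π v) + (ρ x v + ρ y (s v)) := fun v => rfl
  have h4 : ∀ v w, polar Q (ρ x v + ρ y (s v)) (ρ x w + ρ y (s w)) = d * polar Q (ρ ε v) w :=
    fun v w => by
      rw [polar_unit hρ hs hc hδ, e3, ← rho_rho, AlgHom.commutes, Module.algebraMap_end_apply,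
        polar_smul_left, smul_eq_mul]
  refine ⟨he, hn, h, fun v => ?_, fun h0 => ?_, fun g g1 g2 g3 v => ?_⟩
  · have h5 : ρ x v + ρ y (s v) = ρ ε (ρ x v + ρ y (s v)) := by
      rw [map_add, rho_rho, rho_rho, mul_comm ε, mul_comm ε, e4, e5]
    have h6 : Q (b (π v)) = d * Q (v - ρ ε v) := hb (π v)
    rw [h3, Q_add, h6, h5, k3 _ _ (b (π v)).2, ← h5,
      Q_eq_of_polar h2 (x := ρ x v + ρ y (s v)) (d := d) (y := ρ ε v) (by rw [h4, ← hρ, rho_rho, e0])]
    conv_rhs => rw [← sub_add_cancel v (ρ ε v), Q_add, k3 _ _ (k2 v)]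
    ring
  · have h5 : ∀ v, (b (π v) : V) = 0 := fun v => h0.le (b (π v)).2
    have h6 : ∀ v, ρ ε v = v := fun v => (sub_eq_zero.1 (h0.le (k2 v))).symm
    have hA' : LinearMap.IsAlt (LinearMap.BilinForm.compLeft (polarBilin Q) s) := hA
    refine det_of_alt_sim _ hA' (hA'.isRefl.nondegenerate_iff_separatingLeft.2
        fun v hv => h0.le (eq_zero_of_polar hQ hv)) hm h hd fun u v => ?_
    change polar Q (s (h u)) (h v) = d * polar Q (s u) v
    rw [h3, h3, h5, h5, zero_add, zero_add, map_add, hc, hc, h4, h6]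
  · have h5 : π (g v) = π v := Subtype.ext (by
      change g v - ρ ε (g v) = v - ρ ε v
      rw [← g1, ← map_sub, g3 _ (k2 v)])
    rw [h3, h3, h5, map_add, map_add, g1, g1, g2, g3 _ (b (π v)).2]

include hQ h2 hρ hs hc hδ in
theorem exists_spin_comm [Finite F] [Nontrivial V] (hi : Function.Injective ρ)
    (hs0 : ∀ v, s v = 0 → v = 0) : ∃ l : List V, (∀ v ∈ l, Q v ≠ 0) ∧ Even l.length ∧
      ¬ IsSquare (l.map Q).prod ∧ ∀ (c : R) (v : V),
        (reflProd Q l).1 (ρ c v + s v) = ρ c ((reflProd Q l).1 v) + s ((reflProd Q l).1 v) := by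
  have : Nontrivial R := ρ.domain_nontrivial
  obtain ⟨m, hm, σ, h1, hσ⟩ := exists_field_summand F R
  let := Ideal.Quotient.field m
  have : Finite (R ⧸ m) := .of_surjective _ Ideal.Quotient.mk_surjective
  have hσ' : ∀ a b, σ a * σ b = σ (a * b) := fun a b => by rw [(hσ _ _).1, (hσ 1 _).2]
  obtain ⟨x, hx⟩ : ∃ x, Q (ρ (σ 1) x) ≠ 0 := by
    by_contra h
    push Not at h
    refine h1 (hi (LinearMap.ext fun v => ?_))
    rw [map_zero]
    refine eq_zero_of_polar hQ fun w => ?_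
    rw [← mul_one (1 : R ⧸ m), ← hσ', ← rho_rho, hρ, polar, ← map_add, h, h, h]; simp
  set d := Ideal.Quotient.mk m δ
  have hd : d ≠ 0 := fun h => hx (by
    have : ρ (σ 1) x = 0 := hs0 _ (hs0 _ (by rw [hδ, rho_rho, (hσ _ _).1]; simp [d, h]))
    simp [this])
  obtain ⟨n', hn'⟩ := exists_not_isSquare h2
  obtain ⟨n, rfl⟩ := FiniteField.norm_surjective F (R ⧸ m) n'
  have hn : n ≠ 0 := fun h => hn' (by simp [h])
  obtain ⟨p, q, hpq⟩ := exists_sq_add_sq_eq one_ne_zero (neg_ne_zero.2 hd) n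
  let φ : (R ⧸ m) →ₗ[F] V := LinearMap.applyₗ x ∘ₗ ρ.toLinearMap ∘ₗ σ
  have e1 : ∀ a, φ a = ρ (σ a) x := fun _ => rfl
  let ψ : (R ⧸ m) →ₗ[F] V := (ρ (σ p) + ρ (σ q) ∘ₗ s) ∘ₗ φ
  have e2 : ∀ a, ψ a = ρ (σ p) (φ a) + ρ (σ q) (s (φ a)) := fun _ => rfl
  have e3 : ∀ c a, ρ c (φ a) = φ (Ideal.Quotient.mk m c * a) := fun c a => by
    rw [e1, e1, rho_rho, (hσ _ _).1]
  have e4 : ∀ c a, ρ c (ψ a) = ψ (Ideal.Quotient.mk m c * a) := fun c a => by
    rw [e2, e2, ← e3, hc, map_add, rho_rho, rho_rho, rho_rho, rho_rho, mul_comm c, mul_comm c]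
  have e5 : ∀ a, ψ a = φ (p * a) + s (φ (q * a)) := fun a => by
    rw [e2, ← hc, e3, e3, (hσ 1 _).2, (hσ 1 _).2]
  have e6 : ∀ a b, polar Q (ψ a) (ψ b) = polar Q (φ (n * a)) (φ b) := fun a b => by
    rw [e2, e2, polar_unit hρ hs hc hδ, e3, hσ', hσ', map_sub, map_mul _ δ, (hσ 1 _).2,
      (hσ 1 _).2, ← hpq]
    congr 3; ring
  have e7 : ∀ a, (∀ b, polar Q (φ a) (φ b) = 0) → a = 0 := fun a h => by
    by_contra ha
    have := h a⁻¹
    rw [e1, hρ, e3, (hσ 1 _).2, mul_inv_cancel₀ ha, ← mul_one (1 : R ⧸ m), e1, ← hσ', ← rho_rho,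
      ← hρ, polar_self'] at this
    exact mul_ne_zero h2 hx this
  have e8 : ∀ (χ : (R ⧸ m) →ₗ[F] V) a b, polar (Q.comp χ) a b = polar Q (χ a) (χ b) :=
    fun χ x y => by simp [polar]
  have e9 : ∀ χ : (R ⧸ m) →ₗ[F] V, (∀ c a, ρ c (χ a) = χ (Ideal.Quotient.mk m c * a)) →
      ∀ a b, polar Q (χ a) (s (χ b)) = 0 := fun χ h a b => by
    have h3 : ∀ a, χ a = ρ (σ a) (χ 1) := fun a => by rw [h, (hσ 1 _).2, mul_one]
    refine mul_left_cancel₀ h2 ?_
    have := hs (χ 1) (ρ (σ b * σ a) (χ 1))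
    rw [hc, ← hρ (σ b * σ a) (χ 1), polar_comm] at this
    rw [h3 a, h3 b, hc, ← hρ, rho_rho]
    linear_combination this
  have key : ∀ χ : (R ⧸ m) →ₗ[F] V, (∀ c a, ρ c (χ a) = χ (Ideal.Quotient.mk m c * a)) →
      ∀ τ : OG Q, (∀ a, τ.1 (χ a) = -χ a) → (∀ z, (∀ a, polar Q (χ a) z = 0) → τ.1 z = z) →
      ∀ a b w, w = χ a + s (χ b) → τ.1 w = χ (-a) + s (χ b) ∧
        (∀ c, τ.1 (ρ c w) = ρ c (τ.1 w)) ∧ τ.1 (s w) = -s (τ.1 w) := by
    rintro χ h τ t1 t2 a b _ rfl
    have t3 : ∀ b, τ.1 (s (χ b)) = s (χ b) := fun b => t2 _ fun a => e9 χ h a b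
    simp [← hc, hδ, h, t1, t3, add_comm]
  have hφ : (polarBilin (Q.comp φ)).Nondegenerate := nondegenerate_of_polar fun a ha =>
    e7 a fun b => (e8 _ _ _).symm.trans (ha b)
  obtain ⟨l, l1, l2, l3, l4, l5⟩ := exists_negOn h2 φ hφ
  obtain ⟨l', l1', l2', l3', l4', l5'⟩ := exists_negOn h2 ψ (nondegenerate_of_polar fun a ha =>
    (mul_eq_zero.1 (e7 _ fun b => (e6 _ _).symm.trans ((e8 _ _ _).symm.trans (ha b)))).resolve_left
      hn)
  refine ⟨l' ++ l, fun v hv => (List.mem_append.1 hv).elim (l1' v) (l1 v), by simp [l2, l2'],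
    fun h => hn' ?_, fun c v => ?_⟩
  · have h3 : (gram (Q.comp ψ) (finBasis F _)).det =
        Algebra.norm F n * (gram (Q.comp φ) (finBasis F _)).det := by
      rw [gram_eq_toMatrix, gram_eq_toMatrix, show polarBilin (Q.comp ψ) =
        LinearMap.BilinForm.compLeft (polarBilin (Q.comp φ)) (LinearMap.mul F _ n) from
          LinearMap.BilinForm.ext fun a b => (e8 _ _ _).trans ((e6 _ _).trans (e8 _ _ _).symm),
        LinearMap.BilinForm.toMatrix_compLeft, Matrix.det_mul, Matrix.det_transpose,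
        LinearMap.det_toMatrix, Algebra.norm_apply]
      rfl
    have h4 := pow_ne_zero (finrank F (R ⧸ m)) h2
    rw [h3, isSquare_mul_iff_of_finite (Algebra.norm_ne_zero_iff.2 hn) (det_gram_ne_zero hφ _),
      ← l5] at l5'
    rw [List.map_append, List.prod_append, ← isSquare_mul_self_mul_iff h4, mul_mul_mul_comm,
      isSquare_mul_iff_of_finite (mul_ne_zero h4 (prod_Q_ne_zero l1'))
        (mul_ne_zero h4 (prod_Q_ne_zero l1))] at h
    tauto
  · have h3 := (LinearMap.BilinForm.isCompl_orthogonal_iff_disjoint (polarBilin_isRefl Q)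
      (W := LinearMap.range (φ.coprod (s ∘ₗ φ)))).2 (Submodule.disjoint_def.2 (by
        rintro _ ⟨⟨a, b⟩, rfl⟩ h
        have h3 : a = 0 := e7 a fun a' => by
          rw [polar_comm]; simpa [e9 φ e3] using h _ ⟨(a', 0), rfl⟩
        have h4 : d * b = 0 := e7 _ fun a' => by
          simpa [h3, hs, hδ, e3, d, polar_comm _ (φ a')] using h _ ⟨(0, a'), rfl⟩
        simp [h3, (mul_eq_zero.1 h4).resolve_left hd]))
    obtain ⟨_, ⟨⟨a, b⟩, rfl⟩, z, hz, rfl⟩ := Submodule.mem_sup.1 (h3.sup_eq_top.ge (Submodule.mem_top (x := v)))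
    have z1 : ∀ a, polar Q (φ a) z = 0 := fun a => by simpa using hz _ ⟨(a, 0), rfl⟩
    have z2 : ∀ a, polar Q (s (φ a)) z = 0 := fun a => by simpa using hz _ ⟨(0, a), rfl⟩
    have z3 : ∀ z, (∀ a, polar Q (φ a) z = 0) → (∀ a, polar Q (s (φ a)) z = 0) →
        (reflProd Q (l' ++ l)).1 z = z := fun z h h' => by
      rw [reflProd_append, OG.mul_apply, l4 z h, l4' z fun a => by
        rw [e5, polar_add_left, h, h', add_zero]]
    have z4 := z3 (ρ c z + s z) (fun a => by
      rw [polar_add_right, ← hρ, e3, z1, ← neg_neg (polar _ _ _), ← hs, z2]; simp) fun a => by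
      rw [polar_add_right, ← hρ, ← hc, e3, z2, ← neg_neg (polar _ _ _), ← hs, hδ, e3, z1]; simp
    obtain ⟨k1, k2, k3⟩ := key φ e3 _ l3 l4 a b _ rfl
    obtain ⟨-, k4, k5⟩ := key ψ e4 _ l3' l4' (n⁻¹ * (p * -a - d * q * b)) (n⁻¹ * (p * b + q * a))
      (φ (-a) + s (φ b)) (by
        rw [e5, e5, map_add, hδ, e3, add_add_add_comm, add_comm (s _), add_add_add_comm,
          ← map_add, ← map_add, ← map_add]
        congr 2
        · field_simp; rw [← hpq]; ring
        · congr 1; field_simp; rw [← hpq]; ring)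
    rw [map_add (ρ c), map_add s, add_add_add_comm, map_add, z4, map_add _ _ z, z3 z z1 z2,
      map_add (ρ c), map_add s, add_add_add_comm, reflProd_append, OG.mul_apply, OG.mul_apply]
    change (reflProd Q l').1 ((reflProd Q l).1 (ρ c (φ a + s (φ b)) + s (φ a + s (φ b)))) + _ =
      ρ c ((reflProd Q l').1 ((reflProd Q l).1 (φ a + s (φ b)))) +
        s ((reflProd Q l').1 ((reflProd Q l).1 (φ a + s (φ b)))) + _
    rw [map_add, k2, k3, k1, map_add, map_neg (reflProd Q l').1, k4, k5, neg_neg]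

end alg

include hQ h2 in
theorem odd_centralizer [Finite F] {m : ℕ} (hm : finrank F V = 2 * m) (hm0 : m ≠ 0) (g : OG Q)
    {r : ℕ} (hr : Odd r) (hr' : (r : F) ≠ 0) (hg : g ^ r = 1) :
    (∀ d : F, d ≠ 0 → ∃ h : V →ₗ[F] V, (∀ v, Q (h v) = d * Q v) ∧ (∀ v, h (g.1 v) = g.1 (h v)) ∧
      (LinearMap.det h = d ^ m ∨ ∃ v, Q v ≠ 0 ∧ g.1 v = v)) ∧
    ∃ l : List V, (∀ v ∈ l, Q v ≠ 0) ∧ Even l.length ∧ ¬ IsSquare (l.map Q).prod ∧
      reflProd Q l * g = g * reflProd Q l := by
  let G : OG Q →* Module.End F V := LinearEquiv.automorphismGroup.toLinearMapMonoidHom.comp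
    (OG Q).subtype
  have hG : ∀ k v, G k v = k.1 v := fun _ _ => rfl
  have h3 : (G g).IsSemisimple := Module.End.isSemisimple_of_squarefree_aeval_eq_zero
    (p := Polynomial.X ^ r - 1) (Polynomial.X_pow_sub_one_separable_iff.2 hr').squarefree
    (by rw [map_sub, map_pow, Polynomial.aeval_X, ← map_pow, hg, map_one, map_one, sub_self])
  have h4 : G g⁻¹ ∈ Algebra.adjoin F {G g} := by
    obtain ⟨k, rfl⟩ := hr
    rw [inv_eq_of_mul_eq_one_left ((pow_succ _ _).symm.trans hg), map_pow]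
    exact pow_mem (Algebra.self_mem_adjoin_singleton _ _) _
  let c := G g + G g⁻¹
  let s := G g - G g⁻¹
  have h5 : ∀ v, s v = 0 → g.1 v = v := fun v h => by
    obtain ⟨k, rfl⟩ := hr
    have h6 : ∀ i, ((g ^ 2) ^ i).1 v = v := fun i => by
      induction i with
      | zero => rfl
      | succ i ih =>
        rw [pow_succ, OG.mul_apply, pow_two, OG.mul_apply, show g.1 v = g⁻¹.1 v from
          sub_eq_zero.1 h, OG.apply_inv_self, ← pow_two, ih]
    have h7 := congrArg g.1 (h6 k)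
    rw [← OG.mul_apply, ← pow_mul, ← pow_succ', hg] at h7
    exact h7.symm
  have h6 : ∀ v, s (s v) = 0 → s v = 0 := fun v h => by
    have := (h3.of_mem_adjoin_singleton (sub_mem (Algebra.self_mem_adjoin_singleton _ _) h4)
      ).isFinitelySemisimple.genEigenspace_eq_eigenspace 0 (k := (2 : ℕ)) (by simp)
    exact (Module.End.mem_eigenspace_iff.1 (this.le (Module.End.mem_genEigenspace_nat.2
      (by rw [zero_smul, sub_zero, pow_two]; exact h)))).trans (zero_smul _ _)
  have h7 : Algebra.adjoin F {c} ≤ Algebra.adjoin F {G g} := Algebra.adjoin_le (by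
    simpa using add_mem (Algebra.self_mem_adjoin_singleton _ _) h4)
  let R := Algebra.adjoin F {c}
  have : Finite V := Module.finite_of_finite F
  have : Finite (Module.End F V) := Module.finite_of_finite F
  have : IsReduced R := ⟨fun a ha => Subtype.ext (Module.End.eq_zero_of_isNilpotent_isSemisimple
    (ha.map R.val) (h3.of_mem_adjoin_singleton (h7 a.2)))⟩
  let : CommRing R := open scoped IsMulCommutative in inferInstance
  have hρ : ∀ (a : R) v w, polar Q (R.val a v) w = polar Q v (R.val a w) := fun ⟨a, ha⟩ => by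
    induction ha using Algebra.adjoin_induction with
    | mem x hx =>
      obtain rfl : x = c := hx
      intro v w
      change polar Q (g.1 v + g⁻¹.1 v) w = polar Q v (g.1 w + g⁻¹.1 w)
      rw [polar_add_left, polar_add_right, OG.polar_apply_left, OG.polar_apply_right g, add_comm]
    | algebraMap r => simp
    | add x y _ _ hx hy => intro v w; simpa using congrArg₂ (· + ·) (hx v w) (hy v w)
    | mul x y hx' hy' hx hy =>
      intro v w
      exact (hx _ _).trans ((hy _ _).trans (congrArg _ (congrArg (fun a : R => a.1 w)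
        (mul_comm (⟨y, hy'⟩ : R) ⟨x, hx'⟩))))
  have h8 : ∀ (a : R) (k : Module.End F V), Commute k (G g) → ∀ v, k (R.val a v) = R.val a (k v) :=
    fun a k hk v => LinearMap.congr_fun
      (Algebra.commute_of_mem_adjoin_singleton_of_commute (h7 a.2) hk) v
  have hs : ∀ v w, polar Q (s v) w = -polar Q v (s w) := fun v w => by
    change polar Q (g.1 v - g⁻¹.1 v) w = -polar Q v (g.1 w - g⁻¹.1 w)
    rw [polar_sub_left, polar_sub_right, OG.polar_apply_left, OG.polar_apply_right g, neg_sub]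
  have hc : ∀ (a : R) v, s (R.val a v) = R.val a (s v) := fun a => h8 a s
    ((Commute.refl _).sub_left ((Commute.refl g).inv_left.map G))
  let c' : R := ⟨c, Algebra.self_mem_adjoin_singleton _ _⟩
  have hδ : ∀ v, s (s v) = R.val (c' * c' - 4) v := fun v => by
    change _ = c (c v) - (4 : Module.End F V) v
    simp [s, c, hG, ← Nat.cast_smul_eq_nsmul F]
    module
  obtain ⟨he, hn, -⟩ := exists_sim_comm hQ h2 hρ hs hc hδ hm h6 one_ne_zero
  have h9 : LinearMap.ker s ≠ ⊥ → ∀ d, ∃ v, Q v = d ∧ g.1 v = v := fun h d => by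
    obtain ⟨v, hv⟩ := exists_Q_eq hn (by
      have := Submodule.finrank_eq_zero.not.2 h
      obtain ⟨k, hk⟩ := he; omega) d
    exact ⟨v, hv, h5 _ v.2⟩
  refine ⟨fun d hd => ?_, ?_⟩
  · obtain ⟨-, -, h, k1, k2, k3⟩ := exists_sim_comm hQ h2 hρ hs hc hδ hm h6 hd
    refine ⟨h, k1, k3 (G g) (fun a => h8 a _ rfl) (fun v => by simp [s, hG]) h5, ?_⟩
    by_cases h0 : LinearMap.ker s = ⊥
    · exact .inl (k2 h0)
    · obtain ⟨v, hv, hv'⟩ := h9 h0 1
      exact .inr ⟨v, by simp [hv], hv'⟩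
  by_cases h0 : LinearMap.ker s = ⊥
  · have : Nontrivial V := Module.nontrivial_of_finrank_pos (R := F) (by omega)
    obtain ⟨l, l1, l2, l3, l4⟩ := exists_spin_comm hQ h2 hρ hs hc hδ Subtype.val_injective
      fun v h => h0.le h
    refine ⟨l, l1, l2, l3, OG.ext fun v => smul_right_injective V h2 ?_⟩
    have h10 : ∀ v, R.val c' v + s v = (2 : F) • g.1 v := fun v => by
      change c v + s v = _
      simp [s, c, hG, two_smul]
    have := l4 c' v
    rwa [h10, h10, map_smul] at this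
  · obtain ⟨d, hd⟩ := exists_not_isSquare h2
    obtain ⟨u, hu, hu'⟩ := h9 h0 1
    obtain ⟨v, rfl, hv'⟩ := h9 h0 d
    have h10 : ∀ v, g.1 v = v → Commute (refl Q v) g := fun v h => by
      have := conj_refl g v
      rw [h, mul_inv_eq_iff_eq_mul] at this
      exact this.symm
    refine ⟨[u, v], by simpa [hu] using fun h => hd (by simp [h]), by simp, by simpa [hu] using hd,
      ?_⟩
    rw [reflProd_cons, reflProd_singleton]
    exact (h10 u hu').mul_left (h10 v hv')

end CfsgLib.Inv2
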