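import Mathlib
import Cfsg.Agent.Lib.Orth.Count
import Cfsg.Agent.Lib.OrthE.Compl
import Cfsg.Agent.Lib.Inv2.OddCent
import Cfsg.Agent.Lib.Inv2.Rank2

/-!
# Splitting of classes of `PGO` elements of odd order and of graph involutions
-/

set_option autoImplicit false

namespace CfsgLib.Inv2

open Module QuadraticMap Matrix CfsgLib.Orth CfsgLib.ClAut Cfsg

theorem isConjUnder_iff_of_le {X : Type*} [Group X] {H H' : Subgroup X} {x : X} (hle : H ≤ H')
    (h : ∀ a ∈ H', ∃ c, c * x = x * c ∧ a * c⁻¹ ∈ H) (y : X) :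
    IsConjUnder H x y ↔ IsConjUnder H' x y := by
  refine ⟨fun ⟨a, h1, h2⟩ => ⟨a, hle h1, h2⟩, fun ⟨a, h1, h2⟩ => ?_⟩
  obtain ⟨c, h3, h4⟩ := h a h1
  refine ⟨_, h4, ?_⟩
  rw [h2, mul_assoc a c⁻¹, (Commute.inv_left h3).eq]
  group

variable {F : Type*} [Field F] {ι : Type} [Fintype ι] [DecidableEq ι] {Q : QuadraticForm F (ι → F)}

theorem conj_ofOG_refl {g : GL ι F} {c : F} (hg : IsMult Q g c) (hc : c ≠ 0) (v : ι → F) :
    g * ofOG Q (refl Q v) = ofOG Q (refl Q ((g : Matrix ι ι F) *ᵥ v)) * g := gl_ext fun w => by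
  simp only [Units.val_mul, ← mulVec_mulVec, ofOG_mulVec, refl_apply, mulVec_sub, mulVec_smul,
    hg v, hg.polar]
  congr 2
  field_simp

theorem conj_ofOG_reflProd {g : GL ι F} {c : F} (hg : IsMult Q g c) (hc : c ≠ 0)
    (l : List (ι → F)) : g * ofOG Q (reflProd Q l) =
      ofOG Q (reflProd Q (l.map ((g : Matrix ι ι F) *ᵥ ·))) * g := by
  induction l with
  | nil => simp [reflProd_nil]
  | cons v l ih =>
    rw [List.map_cons, reflProd_cons, reflProd_cons, map_mul, map_mul, ← mul_assoc,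
      conj_ofOG_refl hg hc, mul_assoc, ih, mul_assoc]

theorem prod_map_mulVec {g : GL ι F} {c : F} (hg : IsMult Q g c) (l : List (ι → F)) :
    ((l.map ((g : Matrix ι ι F) *ᵥ ·)).map Q).prod = c ^ l.length * (l.map Q).prod := by
  induction l with
  | nil => simp
  | cons v l ih => simp only [List.map_cons, List.prod_cons, ih, hg v, List.length_cons]; ring

open Polynomial in
theorem det_of_sq {A : Matrix ι ι F} {c : F} (hA : A * A = c • 1) {m : ℕ}
    (hm : Fintype.card ι = 2 * m) (h : ¬ IsSquare c ∨ (-A).charpoly = A.charpoly) :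
    A.det = (-c) ^ m := by
  have h1 : A.charpoly * (-A).charpoly = (X ^ 2 - C c) ^ (2 * m) := by
    rw [charpoly, charpoly, ← Matrix.det_mul, ← hm, show A.charmatrix * (-A).charmatrix =
      (X ^ 2 - C c : F[X]) • 1 from ?_, det_smul, det_one, mul_one]
    rw [charmatrix, charmatrix, map_neg, sub_neg_eq_add, sub_mul, mul_add, mul_add,
      ← map_mul C.mapMatrix, hA, (scalar_commute X (fun _ => Commute.all _ _) (C.mapMatrix A)).eq,
      ← sub_sub, add_sub_cancel_right]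
    ext i j : 1
    by_cases hij : i = j <;> simp [hij, pow_two, diagonal_mul_diagonal]
  have h3 : (X ^ 2 - C c : F[X]).Monic := monic_X_pow_sub_C c two_ne_zero
  have h2 : A.charpoly = (X ^ 2 - C c) ^ m := by
    rcases h with h | h
    · obtain ⟨j, -, hj⟩ := (dvd_prime_pow ((X_pow_sub_C_irreducible_iff_of_prime Nat.prime_two).2
        fun b hb => h ⟨b, by rw [← hb, pow_two]⟩).prime _).1 ⟨_, h1.symm⟩
      have h4 := eq_of_monic_of_associated A.charpoly_monic (h3.pow j) hj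
      have h5 := congrArg natDegree h4
      rw [charpoly_natDegree_eq_dim, h3.natDegree_pow, natDegree_X_pow_sub_C, hm] at h5
      rw [h4, show j = m by omega]
    · rw [h, mul_comm 2, pow_mul, ← pow_two, sq_eq_sq_iff_eq_or_eq_neg] at h1
      refine eq_of_monic_of_associated A.charpoly_monic (h3.pow m) (h1.elim (· ▸ .refl _) fun h => ?_)
      rw [h]; exact (Associated.refl _).neg_left
  rw [det_eq_sign_charpoly_coeff, h2, coeff_zero_eq_eval_zero, hm]
  simp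

theorem exists_perp_apply [Finite F] {V : Type*} [AddCommGroup V] [Module F V]
    [FiniteDimensional F V] {Q : QuadraticForm F V} (hQ : (polarBilin Q).Nondegenerate)
    (h2 : (2 : F) ≠ 0) (h5 : 5 ≤ finrank F V) {g : V →ₗ[F] V} {c : F} (hc : ¬ IsSquare c)
    (hg : ∀ v, g (g v) = c • v) (hs : ∀ u v, polar Q (g u) v = polar Q u (g v)) :
    ∃ v, Q v ≠ 0 ∧ polar Q (g v) v = 0 := by
  by_contra h
  replace h : ∀ v, polar Q (g v) v = 0 → Q v = 0 := fun v hv => by_contra fun h' => h ⟨v, h', hv⟩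
  obtain ⟨e, he, he'⟩ := OrthE.exists_singular (LinearMap.BilinMap.toQuadraticMap
    (LinearMap.BilinForm.compLeft (polarBilin Q) g)) (by omega)
  replace he' : polar Q (g e) e = 0 := he'
  obtain ⟨w, hw, hw'⟩ := exists_perp_polar_eq hQ (W := Submodule.span F {e}) (x := g e) (fun h => by
    obtain ⟨t, ht⟩ := Submodule.mem_span_singleton.1 h
    refine hc ⟨t, smul_left_injective F he ?_⟩
    simp only [← hg, ← ht, map_smul, mul_smul]) 1
  replace hw := hw e (Submodule.mem_span_singleton_self e)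
  have h3 : ∀ w, polar Q e w = 0 → polar Q (g e) w = 1 → Q w = 0 := fun w hw hw' => by
    have := h (w - (polar Q (g w) w / 2) • e) (by
      simp only [map_sub, map_smul, polar_sub_left, polar_sub_right, polar_smul_left,
        polar_smul_right, he', hw', smul_eq_mul]
      rw [hs w e, polar_comm _ w (g e), hw']
      field_simp; ring)
    rwa [Q_sub, Q_smul, h e he', polar_smul_right, polar_comm _ w e, hw, smul_zero, mul_zero, add_zero,
      sub_zero] at this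
  have h4 : ∀ z ∈ (Forms.ofQuad Q).perp (Submodule.span F {e, g e}), Q z = 0 := fun z hz => by
    have z1 : polar Q e z = 0 := hz e (Submodule.subset_span (by simp))
    have z2 : polar Q (g e) z = 0 := hz _ (Submodule.subset_span (by simp))
    have z3 := h3 (w + z) (by simp [hw, z1]) (by simp [hw', z2])
    have z4 := h3 (w - z) (by simp [hw, z1]) (by simp [hw', z2])
    rw [Q_add] at z3
    rw [Q_sub] at z4
    exact mul_left_cancel₀ h2 (by linear_combination z3 + z4 - 2 * h3 w hw hw')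
  have h6 := Submodule.finrank_mono (show (Forms.ofQuad Q).perp (Submodule.span F {e, g e}) ≤
    Submodule.span F {e, g e} from fun z hz => by_contra fun h => by
      obtain ⟨y, hy, hy'⟩ := exists_perp_polar_eq hQ h 1
      rw [polar, h4 _ (add_mem hz hy), h4 _ hz, h4 _ hy] at hy'
      simp at hy')
  have h7 := (Forms.ofQuad Q).finrank_perp (Forms.ofQuad_nondeg Q hQ) (Submodule.span F {e, g e})
  have h8 : finrank F (Submodule.span F ({e, g e} : Set V)) ≤ 2 := by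
    classical
    exact (finrank_span_le_card _).trans (by simpa using Finset.card_le_two)
  omega

variable [Finite F] (hQ : (polarBilin Q).Nondegenerate) (h2 : (2 : F) ≠ 0)
  (h5 : 5 ≤ Fintype.card ι)
include hQ h2 h5

omit [Finite F] in
theorem psoAut_eq_zso : psoAut F ⇑Q = imG Q (zso Q) := by
  have h3 : psoAut F ⇑Q = imG Q ((evG Q).map (ofOG Q)) := by
    rw [← autSubgroupOf_eq_imG (fun g => g ∈ specialIsometryGL F ⇑Q) _ fun g hg => ?_]
    · refine congrArg autSubgroupOf (funext fun β => propext ?_)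
      exact ⟨fun ⟨g, h1, h2⟩ => ⟨g, isometryGroup_le_sim h1.1, h1, h2⟩,
        fun ⟨g, _, h1, h2⟩ => ⟨g, h1, h2⟩⟩
    · have key : ∀ h : OG Q, ofOG Q h ∈ Geo.specialLinear ι F ↔ h ∈ evG Q := fun h => by
        rw [mem_evG_iff hQ (h24_five h5), dickson_eq_one_iff_det hQ h2, ← det_ofOG]
        exact Units.ext_iff
      refine ⟨fun h => ?_, by rintro ⟨h, h1, rfl⟩; exact ⟨Subtype.prop _, (key h).2 h1⟩⟩
      have h3 : ofOG Q (toOG Q ⟨g, h.1⟩) = g := by simp [ofOG]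
      exact ⟨_, (key _).1 (h3.symm ▸ h.2), h3⟩
  rw [h3]
  refine le_antisymm (imG_mono ?_) fun β hβ => ?_
  · rintro _ ⟨h, h1, rfl⟩
    exact ⟨1, h, h1, by simp⟩
  · obtain ⟨_, hg, ⟨t, h, h1, rfl⟩, rfl⟩ := mem_imG.1 hβ
    refine mem_imG.2 ⟨_, ofOG_mem_SimG h, ⟨h, h1, rfl⟩, ?_⟩
    rw [← one_mul (simInd Q ⟨ofOG Q h, _⟩), ← simInd_glScalar t, ← map_mul]
    rfl

omit [Finite F] h2 in
theorem eq_or_neg_of_ofOG {k k' : OG Q} {t : Fˣ} (h : ofOG Q k = glScalar ι F t * ofOG Q k') :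
    k = k' ∨ k = negOG Q * k' := by
  have : Nonempty ι := Fintype.card_pos_iff.1 (by omega)
  obtain ⟨v, hv⟩ := exists_Q_ne_zero_pi hQ
  exact (eq_or_eq_neg_of_glScalar_mul (s := 1) hv (by rw [← h]; simp)).imp And.right And.right

omit h2 in
theorem exists_odd_lift {x : MulAut (POmega F ⇑Q)} (hx : x ∈ imG Q (SimG Q)) {r : ℕ} (hr : Odd r)
    (hxr : x ^ r = 1) : ∃ k : OG Q, k ^ r = 1 ∧ x = simInd Q ⟨ofOG Q k, ofOG_mem_SimG k⟩ := by
  have : Nonempty ι := Fintype.card_pos_iff.1 (by omega)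
  obtain ⟨v, hv⟩ := exists_Q_ne_zero_pi hQ
  obtain ⟨g, hg, -, rfl⟩ := mem_imG.1 hx
  obtain ⟨c, hc⟩ := mem_SimG.1 hg
  have h3 : IsMult Q (g * g) (c * c : Fˣ) := hc.mul hc
  obtain ⟨k, hk⟩ := IsMult.exists_eq_of_sq h3
  have h4 : simInd Q ⟨g, hg⟩ ^ 2 = simInd Q ⟨ofOG Q k, ofOG_mem_SimG k⟩ := by
    rw [← one_mul (simInd Q ⟨ofOG Q k, _⟩), ← simInd_glScalar c, ← map_mul, ← map_pow]
    exact congrArg _ (Subtype.ext ((pow_two g).trans hk))
  have h6 : ∀ n, simInd Q ⟨ofOG Q (k ^ n), ofOG_mem_SimG _⟩ = simInd Q ⟨g, hg⟩ ^ (2 * n) :=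
    fun n => by rw [pow_mul, h4, ← map_pow]; exact congrArg _ (Subtype.ext (map_pow _ _ _))
  obtain ⟨t, ht⟩ := (simInd_eq_one_iff hQ h5 _).1
    ((h6 r).trans (by rw [mul_comm, pow_mul, hxr, one_pow]))
  have h7 : (k ^ r) ^ 2 = 1 := by
    rcases eq_or_neg_of_ofOG hQ h5 (k := k ^ r) (k' := 1) (t := t) (by rw [map_one, mul_one]; exact ht) with h | h
    · rw [h, one_pow]
    · rw [h, mul_one]; exact OG.ext fun v => neg_neg v
  obtain ⟨j, rfl⟩ := hr
  refine ⟨k ^ ((j + 1) * (2 * j + 2)), ?_, ?_⟩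
  · rw [← pow_mul, show (j + 1) * (2 * j + 2) * (2 * j + 1) = (2 * j + 1) * (2 * ((j + 1) * (j + 1)))
      by ring, pow_mul, pow_mul, h7, one_pow]
  · rw [h6, show 2 * ((j + 1) * (2 * j + 2)) = (2 * j + 1) * (2 * j + 3) + 1 by ring, pow_succ,
      pow_mul, hxr, one_pow, one_mul]

theorem odd_comm {m : ℕ} (hm : Fintype.card ι = 2 * m) (k : OG Q) {r : ℕ} (hr : Odd r)
    (hr' : (r : F) ≠ 0) (hk : k ^ r = 1) {g : GL ι F} (hg : g ∈ SimG Q) :
    (∃ c ∈ propG Q, c * ofOG Q k = ofOG Q k * c ∧ g * c⁻¹ ∈ (ofOG Q).range) ∧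
    (g ∈ propG Q → ∃ c ∈ propG Q, c * ofOG Q k = ofOG Q k * c ∧ g * c⁻¹ ∈ zom Q) := by
  have : Nonempty ι := Fintype.card_pos_iff.1 (by omega)
  obtain ⟨h3, l, l1, l2, l3, l4⟩ := odd_centralizer hQ h2 (m := m) (by simpa using hm) (by omega)
    k hr hr' hk
  obtain ⟨d, hd⟩ := mem_SimG.1 hg
  obtain ⟨h, k1, k2, k3⟩ := h3 d d.ne_zero
  have k4 : Function.Injective h := (injective_iff_map_eq_zero h).2 fun v hv =>
    eq_zero_of_polar hQ fun w => mul_left_cancel₀ d.ne_zero (by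
      simp only [polar, mul_sub, ← k1, map_add, hv]; simp)
  let c := (glEquiv ι F).symm (LinearEquiv.ofInjectiveEndo h k4)
  have k5 : ∀ v, (c : Matrix ι ι F) *ᵥ v = h v := glEquiv_symm_mulVec _
  have k6 : IsMult Q c d := fun v => by rw [k5, k1]
  have k7 : c * ofOG Q k = ofOG Q k * c := gl_ext fun v => by
    simp only [Units.val_mul, ← mulVec_mulVec, ofOG_mulVec, k5, k2]
  obtain ⟨c, c1, c2, c3⟩ : ∃ c ∈ propG Q, IsMult Q c d ∧ c * ofOG Q k = ofOG Q k * c := by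
    rcases k3 with k3 | ⟨v, hv, hv'⟩
    · refine ⟨c, mem_propG_of_det h2 d.ne_zero k6 ?_, k6, k7⟩
      rw [hm, Nat.mul_div_cancel_left _ two_pos, ← k3, ← LinearMap.det_toLin']
      exact congrArg _ (LinearMap.ext k5)
    · rcases mem_propG_or hQ (h24_five h5) (k6.mem d.ne_zero) hv with h | h
      · exact ⟨c, h, k6, k7⟩
      · refine ⟨_, h, by simpa using k6.mul (isMult_ofOG _), ?_⟩
        have := conj_refl k v
        rw [hv', mul_inv_eq_iff_eq_mul] at this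
        rw [mul_assoc, ← map_mul, ← this, map_mul, ← mul_assoc, k7, mul_assoc]
  obtain ⟨s, hs⟩ := IsMult.exists_ofOG (Q := Q) (g := g * c⁻¹)
    (by simpa using hd.mul (c2.inv d.ne_zero))
  refine ⟨⟨c, c1, c3, s, hs⟩, fun hg' => ?_⟩
  have h24 := h24_five (F := F) h5
  have s1 := (ofOG_mem_propG_iff hQ h24 ⟨m, by omega⟩ s).1 (hs ▸ mul_mem hg' (inv_mem c1))
  rcases Int.units_eq_one_or (spinor hQ h24 s) with s2 | s2
  · exact ⟨c, c1, c3, hs ▸ ofOG_mem_zom ((mem_commutator_iff hQ h24 s).2 ⟨s1, s2⟩)⟩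
  · have a1 := (dickson_reflProd_eq_one_iff hQ h24 l1).2 l2
    have a2 := (Int.units_eq_one_or _).resolve_left
      (mt (spinor_reflProd_eq_one_iff hQ h24 l1).1 l3)
    refine ⟨ofOG Q (reflProd Q l) * c, mul_mem (ofOG_mem_propG ⟨l, l1, l2, rfl⟩) c1, ?_, ?_⟩
    · rw [mul_assoc, c3, ← mul_assoc, ← map_mul, l4, map_mul, mul_assoc]
    · rw [_root_.mul_inv_rev, ← mul_assoc, ← hs, ← map_inv, ← map_mul]
      exact ofOG_mem_zom ((mem_commutator_iff hQ h24 _).2 (by simp [s1, s2, a1, a2]))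

theorem odd_classes {m : ℕ} (hm : Fintype.card ι = 2 * m) {x : MulAut (POmega F ⇑Q)}
    (hx : x ∈ pgoAut F ⇑Q) {r : ℕ} (hr : Odd r) (hr' : (r : F) ≠ 0) (hxr : x ^ r = 1) :
    (∀ y, (IsConjUnder (Inn (POmega F ⇑Q)) x y ↔ IsConjUnder (IDg Q) x y) ∧
      (IsConjUnder (psoAut F ⇑Q) x y ↔ IsConjUnder (IDg Q) x y)) ∧
    ∀ y, IsConjUnder (poAut F ⇑Q) x y ↔ IsConjUnder (pgoAut F ⇑Q) x y := by
  rw [pgoAut_eq_imG] at hx ⊢
  obtain ⟨k, hk, rfl⟩ := exists_odd_lift hQ h5 hx hr hxr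
  have key : ∀ H H' : Subgroup (GL ι F), H ≤ H' → (∀ g ∈ SimG Q, g ∈ H' → ∃ c ∈ propG Q,
      c * ofOG Q k = ofOG Q k * c ∧ g * c⁻¹ ∈ H) → ∀ y,
      IsConjUnder (imG Q H) (simInd Q ⟨ofOG Q k, ofOG_mem_SimG k⟩) y ↔
        IsConjUnder (imG Q H') (simInd Q ⟨ofOG Q k, ofOG_mem_SimG k⟩) y := fun H H' h h' =>
    isConjUnder_iff_of_le (imG_mono h) fun a ha => by
      obtain ⟨g, hg, hg', rfl⟩ := mem_imG.1 ha
      obtain ⟨c, c1, c2, c3⟩ := h' g hg hg'
      refine ⟨simInd Q ⟨c, propG_le c1⟩, ?_, mem_imG.2 ⟨_, mul_mem hg (inv_mem (propG_le c1)), c3, ?_⟩⟩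
      · rw [← map_mul, ← map_mul]; exact congrArg _ (Subtype.ext c2)
      · rw [← map_inv, ← map_mul]; rfl
  rw [inn_eq_imG, psoAut_eq_zso hQ h2 h5, poAut_eq_imG]
  have h24 := h24_five (F := F) h5
  refine ⟨fun y => ⟨key _ _ (zom_le_propG hQ h24) (fun g hg => (odd_comm hQ h2 h5 hm k hr hr' hk hg).2) y,
    key _ _ zso_le_propG (fun g hg hg' => ?_) y⟩, key _ _ (by
      rintro _ ⟨h, rfl⟩; exact ofOG_mem_SimG h) fun g hg _ => (odd_comm hQ h2 h5 hm k hr hr' hk hg).1⟩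
  obtain ⟨c, c1, c2, c3⟩ := (odd_comm hQ h2 h5 hm k hr hr' hk hg).2 hg'
  exact ⟨c, c1, c2, zom_le_zso hQ h24 c3⟩

section graph

variable {m : ℕ} (hm : Fintype.card ι = 2 * m) {g : GL ι F} (hg : g ∈ SimG Q) (hg' : g ∉ propG Q)
include hm hg hg'

omit [Finite F] in
theorem isMult_of_sq {c : Fˣ} (hc : g * g = glScalar ι F c) : IsMult Q g c := by
  have : Nonempty ι := Fintype.card_pos_iff.1 (by omega)
  obtain ⟨v, hv⟩ := exists_Q_ne_zero_pi hQ
  obtain ⟨d, hd⟩ := mem_SimG.1 hg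
  refine (mul_self_eq_mul_self_iff.1 ((hd.mul hd).unique (hc ▸ isMult_glScalar c) hv)).elim
    (fun h => by rw [← h]; exact hd) fun h => (hg' (mem_propG_of_det h2 d.ne_zero hd ?_)).elim
  have h3 : ∀ v, g.1 *ᵥ (g.1 *ᵥ v) = (c : F) • v := fun v => by
    rw [mulVec_mulVec, ← Units.val_mul, hc, glScalar_mulVec]
  have hA : LinearMap.IsAlt (LinearMap.BilinForm.compLeft (polarBilin Q) (toLin' g.1)) := fun v => by
    have := hd.polar v (g.1 *ᵥ v)
    rw [h3, polar_smul_right, h, polar_comm _ v] at this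
    exact mul_left_cancel₀ (mul_ne_zero h2 c.ne_zero) (by
      change _ * polar Q (g.1 *ᵥ v) v = _
      linear_combination this)
  rw [hm, Nat.mul_div_cancel_left _ two_pos, ← LinearMap.det_toLin']
  refine det_of_alt_sim _ hA (hA.isRefl.nondegenerate_iff_separatingLeft.2 fun v hv => ?_)
    (by simpa using hm) _ d.ne_zero fun u v => hd.polar _ _
  have := h3 v
  rw [show g.1 *ᵥ v = 0 from eq_zero_of_polar hQ hv, mulVec_zero] at this
  exact (smul_eq_zero.1 this.symm).resolve_left c.ne_zero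

omit hm hg hg' in
theorem exists_spin_of_sq {c : Fˣ} (hc : g * g = glScalar ι F c) (hc' : IsMult Q g c) :
    ∃ u v, Q u ≠ 0 ∧ Q v ≠ 0 ∧ ¬ IsSquare (Q u * Q v) ∧
      g * ofOG Q (refl Q u * refl Q v) = ofOG Q (refl Q u * refl Q v) * g := by
  have key : ∀ u v, g * ofOG Q (refl Q u * refl Q v) =
      ofOG Q (refl Q (g.1 *ᵥ u) * refl Q (g.1 *ᵥ v)) * g := fun u v => by
    rw [map_mul, map_mul, ← mul_assoc, conj_ofOG_refl hc' c.ne_zero, mul_assoc,
      conj_ofOG_refl hc' c.ne_zero, mul_assoc]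
  have h3 : ∀ v, g.1 *ᵥ (g.1 *ᵥ v) = (c : F) • v := fun v => by
    rw [mulVec_mulVec, ← Units.val_mul, hc, glScalar_mulVec]
  by_cases hs : IsSquare (c : F)
  · obtain ⟨t, ht⟩ := hs
    have ht0 : t ≠ 0 := by rintro rfl; simp at ht
    obtain ⟨k, hk⟩ := IsMult.exists_eq_of_sq (t := Units.mk0 t ht0) (ht ▸ hc')
    have h4 : ∀ v, g.1 *ᵥ v = t • k.1 v := fun v => by
      rw [hk, Units.val_mul, ← mulVec_mulVec, glScalar_mulVec, ofOG_mulVec]; rfl
    obtain ⟨b, b1, b2, b3⟩ := exists_eigenbasis hQ h2 (A := Unit) (ρ := fun _ => k)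
      (fun _ _ => rfl) fun _ => OG.ext fun v => smul_right_injective _ c.ne_zero (by
        simp only [OG.mul_apply, OG.one_apply]
        rw [← h3 v, h4, h4, map_smul, smul_smul, ht])
    obtain ⟨i, j, hij, h⟩ := Fintype.exists_ne_map_eq_of_card_lt (fun i => k.1 (b i) = b i)
      (by simp; omega)
    obtain ⟨e, he, hi, hj⟩ : ∃ e : F, e ≠ 0 ∧ k.1 (b i) = e • b i ∧ k.1 (b j) = e • b j := by
      by_cases hi : k.1 (b i) = b i
      · exact ⟨1, one_ne_zero, by simpa, by simpa using h.mp hi⟩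
      · exact ⟨-1, by simp, by simpa using (b3 () i).resolve_left hi,
          by simpa using (b3 () j).resolve_left (mt h.mpr hi)⟩
    have h6 : ∀ d, ∃ w, Q w = d ∧ refl Q (g.1 *ᵥ w) = refl Q w := fun d => by
      obtain ⟨x, y, hxy⟩ := exists_sq_add_sq_eq (b2 i) (b2 j) d
      refine ⟨x • b i + y • b j, by simp [Q_add, Q_smul, b1 i j hij, hxy], ?_⟩
      rw [h4, refl_smul ht0, map_add, map_smul, map_smul, hi, hj, smul_comm x, smul_comm y,
        ← smul_add, refl_smul he]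
    obtain ⟨d, hd⟩ := exists_not_isSquare h2
    obtain ⟨u, hu, hu'⟩ := h6 1
    obtain ⟨v, rfl, hv'⟩ := h6 d
    exact ⟨u, v, by simp [hu], fun h => hd (by simp [h]), by simpa [hu], by rw [key, hu', hv']⟩
  · obtain ⟨v, hv, hv'⟩ := exists_perp_apply hQ h2 (by simpa) (g := toLin' g.1) hs h3 fun u v =>
      mul_left_cancel₀ c.ne_zero (by
        rw [← hc'.polar u]; exact (polar_smul_right _ _ _ _).symm.trans (congrArg _ (h3 v).symm))
    refine ⟨v, g.1 *ᵥ v, hv, by rw [hc' v]; exact mul_ne_zero c.ne_zero hv, ?_, ?_⟩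
    · rwa [hc' v, mul_left_comm, mul_comm, isSquare_mul_self_mul_iff hv]
    · rw [key, h3, refl_smul c.ne_zero, mul_inv_eq_iff_eq_mul.1 (conj_refl _ v),
       
        refl_apply_of_polar_eq_zero (v := g.1 *ᵥ v) hv']

omit hg hg' h2 in
theorem conj_eq_neg {h : GL ι F} {d : F} (hd : IsMult Q h d) (hd0 : d ≠ 0) (hd' : ¬ IsSquare d)
    {s t : Fˣ} {k : OG Q} (hk : glScalar ι F s * ofOG Q k ∉ propG Q)
    (hh : h * (glScalar ι F s * ofOG Q k) = glScalar ι F t * (glScalar ι F s * ofOG Q k) * h) :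
    negOG Q ∉ commutator (OG Q) ∧ t = -1 := by
  have : Nonempty ι := Fintype.card_pos_iff.1 (by omega)
  obtain ⟨v, hv⟩ := exists_Q_ne_zero_pi hQ
  have h24 := h24_five (F := F) h5
  obtain ⟨l, hl, rfl⟩ := exists_reflProd hQ h24 k
  rw [glScalar_mul_mem_propG_iff hQ h24 ⟨m, by omega⟩, dickson_reflProd_eq_one_iff hQ h24 hl,
    Nat.not_even_iff_odd] at hk
  rw [← mul_assoc, ← glScalar_comm, mul_assoc, conj_ofOG_reflProd hd hd0, ← mul_assoc,
    mul_left_inj, ← mul_assoc, ← map_mul] at hh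
  have h3 : spinor hQ h24 (reflProd Q (l.map (h.1 *ᵥ ·))) ≠ spinor hQ h24 (reflProd Q l) := by
    rw [Ne, units_eq_iff_eq_one, spinor_reflProd_eq_one_iff hQ h24 hl,
      spinor_reflProd_eq_one_iff hQ h24 (by
        simpa using fun v hv => (hd v).trans_ne (mul_ne_zero hd0 (hl v hv))), prod_map_mulVec hd,
      isSquare_mul_iff_of_finite (pow_ne_zero _ hd0) (prod_Q_ne_zero hl)]
    obtain ⟨j, hj⟩ := hk
    rw [hj, pow_succ, two_mul, pow_add, isSquare_mul_self_mul_iff (pow_ne_zero _ hd0)]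
    tauto
  rcases eq_or_eq_neg_of_glScalar_mul hv hh with h4 | ⟨h4, h6⟩
  · exact (h3 (by rw [h4.2])).elim
  · refine ⟨fun h7 => h3 (by rw [h6, map_mul, ((mem_commutator_iff hQ h24 _).1 h7).2, one_mul]), ?_⟩
    rw [← neg_mul, eq_comm, mul_eq_right, neg_eq_iff_eq_neg] at h4
    exact h4

theorem mem_zso_of_comm {c : Fˣ} (hc : g * g = glScalar ι F c)
    (H : negOG Q ∈ commutator (OG Q) ∨ Even m) {h : GL ι F} (hh : h ∈ propG Q) {t : Fˣ}
    (ht : h * g = glScalar ι F t * g * h) : h ∈ zso Q := by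
  have : Nonempty ι := Fintype.card_pos_iff.1 (by omega)
  have h24 := h24_five (F := F) h5
  obtain ⟨d, hd⟩ := mem_SimG.1 (propG_le hh)
  refine (mem_zso_iff hQ h24 hh hd d.ne_zero).2 (by_contra fun hd' => ?_)
  have h3 := isMult_of_sq hQ h2 h5 hm hg hg' hc
  have h4 : g.1 * g.1 = (c : F) • 1 := by rw [← Units.val_mul, hc, coe_glScalar]
  have h6 : Even m → IsSquare (c : F) ∧ (-g.1).charpoly ≠ g.1.charpoly := fun he => by
    by_contra h
    refine hg' (mem_propG_of_det h2 c.ne_zero h3 ?_)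
    rw [det_of_sq h4 hm (by tauto), he.neg_pow, hm, Nat.mul_div_cancel_left _ two_pos]
  by_cases hs : IsSquare (c : F)
  · obtain ⟨s, k, rfl⟩ := h3.exists_eq_of_isSquare c.ne_zero hs
    obtain ⟨h7, rfl⟩ := conj_eq_neg hQ h5 hm hd d.ne_zero hd' hg' ht
    refine (h6 (H.resolve_left h7)).2 ?_
    rw [← charpoly_units_conj h (Units.val _), ← Units.val_mul, ht]
    simp [coe_glScalar]
  · obtain ⟨s, k, hk⟩ := (h3.mul hd).exists_eq_of_isSquare (mul_ne_zero c.ne_zero d.ne_zero)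
      ((isSquare_mul_iff_of_finite c.ne_zero d.ne_zero).2 (iff_of_false hs hd'))
    refine (conj_eq_neg hQ h5 hm hd d.ne_zero hd' (s := s) (t := t) (k := k) ?_ ?_).1
      (H.resolve_right fun he => hs (h6 he).1)
    · rw [← hk, mul_mem_cancel_right hh]; exact hg'
    · rw [← hk, ← mul_assoc, ht, mul_assoc _ g]

theorem graph_split (ho : orderOf (simInd Q ⟨g, hg⟩) = 2) :
    (splitClassCount (IDg Q) (Inn _) (simInd Q ⟨g, hg⟩) = 1 ∨
      splitClassCount (IDg Q) (Inn _) (simInd Q ⟨g, hg⟩) = 2) ∧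
    (negOG Q ∈ commutator (OG Q) ∨ Even m →
      splitClassCount (IDg Q) (Inn _) (simInd Q ⟨g, hg⟩) = 2) := by
  have : Nonempty ι := Fintype.card_pos_iff.1 (by omega)
  have h24 := h24_five (F := F) h5
  obtain ⟨c, hc⟩ := (simInd_eq_one_iff hQ h5 (⟨g, hg⟩ * ⟨g, hg⟩)).1 (by
    rw [map_mul, ← pow_two, ← ho, pow_orderOf_eq_one])
  obtain ⟨u, v, hu, hv, h3, h4⟩ := exists_spin_of_sq hQ h2 h5 hc (isMult_of_sq hQ h2 h5 hm hg hg' hc)
  have h6 : (imG Q (zso Q)).relIndex (IDg Q) = 2 := by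
    obtain ⟨d, hd⟩ := exists_not_isSquare h2
    obtain ⟨s, hs, hs'⟩ := exists_propG_mult hQ ⟨m, by omega⟩ (Units.mk0 d fun h => hd (by simp [h]))
    rw [relIndex_imG hQ h5 (fun t => zom_le_zso hQ h24 (glScalar_mem_zom t)) propG_le,
      relIndex_zso_propG hQ h24 hs hs' hd]
  have h7 : imG Q (zso Q) ≤ Inn _ ⊔ (IDg Q ⊓ Subgroup.centralizer {simInd Q ⟨g, hg⟩}) := by
    rw [inn_eq_imG]
    intro β hβ
    obtain ⟨_, hs, ⟨t, s, s1, rfl⟩, rfl⟩ := mem_imG.1 hβ
    have s2 := (mem_evG_iff hQ h24).1 s1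
    rcases Int.units_eq_one_or (spinor hQ h24 s) with s3 | s3
    · exact Subgroup.mem_sup_left (mem_imG.2 ⟨_, hs, ⟨t, s,
        (mem_commutator_iff hQ h24 s).2 ⟨s2, s3⟩, rfl⟩, rfl⟩)
    · have a1 : dickson hQ h24 (refl Q u * refl Q v) = 1 := by
        simp [dickson_refl hQ h24 hu, dickson_refl hQ h24 hv]
      have a2 := (Int.units_eq_one_or _).resolve_left
        (mt (spinor_reflProd_eq_one_iff hQ h24 (l := [u, v]) (by simp [hu, hv])).1 (by simpa))
      rw [reflProd_cons, reflProd_singleton] at a2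
      have a3 : _ ∈ zom Q := mem_zom.2 ⟨t, s * (refl Q u * refl Q v)⁻¹,
        (mem_commutator_iff hQ h24 _).2
          (by rw [map_mul, map_mul, map_inv, map_inv, a1, a2, s2, s3]; simp), rfl⟩
      have := Subgroup.mul_mem_sup (mem_imG.2 ⟨_, propG_le (zom_le_propG hQ h24 a3), a3, rfl⟩)
        (show simInd Q ⟨_, ofOG_mem_SimG (refl Q u * refl Q v)⟩ ∈
          IDg Q ⊓ Subgroup.centralizer {simInd Q ⟨g, hg⟩} from ⟨mem_imG.2 ⟨_, _,
            ofOG_mem_propG ((mem_evG_iff hQ h24).2 a1), rfl⟩,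
            Subgroup.mem_centralizer_singleton_iff.2 (by
              rw [← map_mul, ← map_mul]; exact congrArg _ (Subtype.ext h4.symm))⟩)
      rw [← map_mul] at this
      convert this using 2
      ext1
      simp [mul_assoc, ← map_mul]
  rw [splitClassCount_eq_relIndex (inn_le_IDg hQ h5)]
  refine ⟨(Nat.dvd_prime Nat.prime_two).1 (h6 ▸ Subgroup.relIndex_dvd_of_le_left _ h7), fun H => ?_⟩
  rw [← h6]
  refine congrArg (Subgroup.relIndex · _) (le_antisymm (sup_le ?_ fun β hβ => ?_) h7)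
  · rw [inn_eq_imG]; exact imG_mono (zom_le_zso hQ h24)
  · obtain ⟨h, h8, h9, rfl⟩ := mem_imG.1 hβ.1
    obtain ⟨t, ht⟩ := (simInd_eq_one_iff hQ h5 (⟨h, h8⟩ * ⟨g, hg⟩ * (⟨g, hg⟩ * ⟨h, h8⟩)⁻¹)).1 (by
      rw [map_mul, map_inv, map_mul, map_mul, Subgroup.mem_centralizer_singleton_iff.1 hβ.2,
        mul_inv_cancel])
    exact mem_imG.2 ⟨h, h8, mem_zso_of_comm hQ h2 h5 hm hg hg' hc H h9 (t := t)
      ((mul_inv_eq_iff_eq_mul.1 ht).trans (mul_assoc _ _ _).symm), rfl⟩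

end graph

end CfsgLib.Inv2
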