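import Mathlib
import Cfsg.Agent.Lib.Orth.Out
import Cfsg.Agent.Lib.Inv2.Split

/-!
# The quotients `PGO/PSO`, `PGO/T`, `Inndiag(T)/T` for `T = PΩ(Q)`, `q` odd, even dimension
-/

set_option autoImplicit false

namespace CfsgLib.Inv2

open Module QuadraticMap Matrix CfsgLib.Orth CfsgLib.ClAut Cfsg

theorem exists_hom_klein {G : Type*} [Group G] (N : Subgroup G) (h4 : N.index = 4)
    (h : ∀ x, x * x ∈ N) :
    ∃ φ : G →* Multiplicative (ZMod 2 × ZMod 2), Function.Surjective φ ∧ φ.ker = N := by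
  have hn : N.Normal := ⟨fun n hn g => by
    have := N.mul_mem (N.mul_mem (h (g * n)) (N.inv_mem hn)) (h g⁻¹)
    convert this using 1; group⟩
  have h1 : Nat.card (G ⧸ N) = 4 := h4
  have h3 : ∀ x : G ⧸ N, x ^ 2 = 1 := fun x => by
    obtain ⟨g, rfl⟩ := QuotientGroup.mk_surjective x
    rw [pow_two, ← QuotientGroup.mk_mul, QuotientGroup.eq_one_iff]; exact h g
  have : Finite (G ⧸ N) := Nat.finite_of_card_ne_zero (by omega)
  have : Nontrivial (G ⧸ N) := Finite.one_lt_card_iff_nontrivial.1 (by omega)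
  have : IsKleinFour (G ⧸ N) := ⟨h1, (Monoid.exponent_eq_prime_iff Nat.prime_two).2
    fun g hg => orderOf_eq_prime (h3 g) hg⟩
  obtain ⟨e⟩ : Nonempty ((G ⧸ N) ≃* Multiplicative (ZMod 2 × ZMod 2)) :=
    IsKleinFour.nonempty_mulEquiv
  refine ⟨e.toMonoidHom.comp (QuotientGroup.mk' N), e.surjective.comp (QuotientGroup.mk'_surjective N),
    Subgroup.ext fun x => ?_⟩
  simp

variable {F : Type*} [Field F] {ι : Type} [Fintype ι] [DecidableEq ι] {Q : QuadraticForm F (ι → F)}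

theorem exists_hom_of_outG {H : Subgroup (GL ι F)} {X : Type*} [Group X]
    (e : Nonempty (outG Q H ≃* X)) : ∃ φ : imG Q H →* X, Function.Surjective φ ∧
      φ.ker = (Inn (POmega F ⇑Q)).subgroupOf (imG Q H) := by
  obtain ⟨e⟩ := e
  let ψ : imG Q H →* outG Q H := ((QuotientGroup.mk' _).comp (imG Q H).subtype).codRestrict _ (by
    rintro ⟨_, g, hg, rfl⟩
    exact ⟨g, hg, rfl⟩)
  refine ⟨e.toMonoidHom.comp ψ, e.surjective.comp ?_, Subgroup.ext fun x => ?_⟩
  · rintro ⟨_, g, hg, rfl⟩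
    exact ⟨⟨_, g, hg, rfl⟩, rfl⟩
  · simp only [MonoidHom.mem_ker, MonoidHom.comp_apply, MulEquiv.coe_toMonoidHom,
      EmbeddingLike.map_eq_one_iff, Subgroup.mem_subgroupOf]
    rw [← QuotientGroup.eq_one_iff, Subtype.ext_iff]
    rfl

variable [Finite F] (hQ : (polarBilin Q).Nondegenerate) (h2 : (2 : F) ≠ 0) (h5 : 5 ≤ Fintype.card ι)
  (he : Even (Fintype.card ι))
include hQ h2 h5 he

theorem pgo_pso_klein : ∃ φ : pgoAut F ⇑Q →* Multiplicative (ZMod 2 × ZMod 2),
    Function.Surjective φ ∧ φ.ker = (psoAut F ⇑Q).subgroupOf (pgoAut F ⇑Q) := by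
  rw [psoAut_eq_zso hQ h2 h5, pgoAut_eq_imG]
  have hz : ∀ t, glScalar ι F t ∈ zso Q := fun t =>
    zom_le_zso hQ (h24_five h5) (glScalar_mem_zom t)
  refine exists_hom_klein _ ((relIndex_imG hQ h5 hz le_rfl).trans (relIndex_zso_SimG hQ h5 he h2)) ?_
  rintro ⟨_, g, -, rfl⟩
  rw [Subgroup.mem_subgroupOf, Subgroup.coe_mul, ← map_mul, simInd_mem_imG_iff hQ h5 hz]
  exact mul_self_mem_zso hQ h5 g.2

omit he in
theorem inn_pso_of_mem (h : negOG Q ∈ commutator (OG Q)) :
    (Inn (POmega F ⇑Q)).relIndex (psoAut F ⇑Q) = 2 := by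
  rw [psoAut_eq_zso hQ h2 h5, inn_eq_imG, relIndex_imG hQ h5 glScalar_mem_zom
    (zso_le_propG.trans propG_le), relIndex_zom_zso_of_mem hQ h5 h2 h]

theorem inn_pso_of_not_mem (h : negOG Q ∉ commutator (OG Q)) :
    (Inn (POmega F ⇑Q)).relIndex (psoAut F ⇑Q) = 1 := by
  rw [psoAut_eq_zso hQ h2 h5, inn_eq_imG, zom_eq_zso_of_not_mem hQ (h24_five h5) he h,
    Subgroup.relIndex_self]

theorem pgo_inn_of_mem (h : negOG Q ∈ commutator (OG Q)) :
    ∃ φ : pgoAut F ⇑Q →* DihedralGroup 4,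
      Function.Surjective φ ∧ φ.ker = (Inn (POmega F ⇑Q)).subgroupOf (pgoAut F ⇑Q) := by
  rw [pgoAut_eq_imG]
  exact exists_hom_of_outG (outG_equiv_dihedral hQ h5 he h2 h)

theorem pgo_inn_of_not_mem (h : negOG Q ∉ commutator (OG Q)) :
    ∃ φ : pgoAut F ⇑Q →* Multiplicative (ZMod 2 × ZMod 2),
      Function.Surjective φ ∧ φ.ker = (Inn (POmega F ⇑Q)).subgroupOf (pgoAut F ⇑Q) := by
  rw [pgoAut_eq_imG]
  exact exists_hom_of_outG (outG_equiv_klein hQ h5 he h2
    (zom_eq_zso_of_not_mem hQ (h24_five h5) he h))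

theorem idg_inn_of_not_mem (h : negOG Q ∉ commutator (OG Q)) :
    ∃ φ : IDg Q →* Multiplicative (ZMod 2),
      Function.Surjective φ ∧ φ.ker = (Inn (POmega F ⇑Q)).subgroupOf (IDg Q) := by
  refine exists_hom_of_outG (outG_equiv_two hQ h5 propG_le ?_)
  rw [zom_eq_zso_of_not_mem hQ (h24_five h5) he h, relIndex_zso_propG' hQ h5 he h2]

theorem card_outG_propG (h : negOG Q ∈ commutator (OG Q)) : Nat.card (outG Q (propG Q)) = 4 := by
  rw [card_outG hQ h5 propG_le, ← Subgroup.relIndex_mul_relIndex _ _ _ (zom_le_zso hQ (h24_five h5))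
    zso_le_propG, relIndex_zso_propG' hQ h5 he h2, relIndex_zom_zso_of_mem hQ h5 h2 h]

omit he
variable {m : ℕ} (hm : Fintype.card ι = 2 * m) {s : GL ι F} {c : Fˣ} (hc : ¬ IsSquare (c : F))
  (hs : IsMult Q s c) (hs2 : s * s = glScalar ι F c)
include hm hc hs hs2

omit [Finite F] hQ h2 h5 hs in
theorem det_of_sq' : (s : Matrix ι ι F).det = (-c) ^ m := by
  refine det_of_sq ?_ hm (Or.inl hc)
  rw [← Units.val_mul, hs2]
  ext i j
  simp [glScalar, Matrix.one_apply, Matrix.diagonal_apply]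

theorem idg_inn_of_even (h : negOG Q ∈ commutator (OG Q)) (hme : Even m) :
    ∃ φ : IDg Q →* Multiplicative (ZMod 2 × ZMod 2),
      Function.Surjective φ ∧ φ.ker = (Inn (POmega F ⇑Q)).subgroupOf (IDg Q) := by
  have : Nonempty ι := Fintype.card_pos_iff.1 (by omega)
  have he : Even (Fintype.card ι) := ⟨m, by omega⟩
  have hp : s ∈ propG Q := mem_propG_of_det h2 c.ne_zero hs (by
    rw [det_of_sq' hm hc hs2, hme.neg_pow, hm]; simp)
  have hz : s ∉ zso Q := by rwa [mem_zso_iff hQ (h24_five h5) hp hs c.ne_zero]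
  have h1 := card_outG_propG hQ h2 h5 he h
  have h0 : simOut Q ⟨s, propG_le hp⟩ * simOut Q ⟨s, propG_le hp⟩ = 1 := by
    rw [← map_mul, simOut_eq_one_iff hQ h5, Subgroup.coe_mul, hs2]
    exact glScalar_mem_zom c
  have h3 : ∀ x : outG Q (propG Q), x ^ 2 = 1 := by
    rintro ⟨_, g, hg, rfl⟩
    refine Subtype.ext ((pow_two _).trans ?_)
    change simOut Q g * simOut Q g = 1
    by_cases h4 : g.1 ∈ zso Q
    · exact mul_eq_one_of_mem_zso hQ h5 (mem_outG h4) (mem_outG h4) Iff.rfl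
    · have h6 : s⁻¹ * g.1 ∈ zso Q := by
        have := (Subgroup.mul_mem_iff_of_index_two (H := (zso Q).subgroupOf (propG Q))
          (relIndex_zso_propG' hQ h5 he h2) (a := (⟨s, hp⟩ : propG Q)⁻¹) (b := ⟨g.1, hg⟩)).2 (by
            simp [Subgroup.mem_subgroupOf, hz, h4])
        exact this
      let z : SimG Q := (⟨s, propG_le hp⟩ : SimG Q)⁻¹ * g
      have h7 : simOut Q z ∈ outG Q (zso Q) := mem_outG h6
      have h8 := (commute_of_mem_zso hQ h5 ⟨.inl s, inl_mem_gamO.2 (propG_le hp)⟩ h7).eq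
      rw [← simOut_eq ⟨s, propG_le hp⟩] at h8
      have h9 : g = ⟨s, propG_le hp⟩ * z := by simp [z]
      rw [h9, map_mul, mul_assoc, ← mul_assoc (simOut Q z), ← h8, mul_assoc,
        mul_eq_one_of_mem_zso hQ h5 h7 h7 Iff.rfl, mul_one, h0]
  have : Finite (outG Q (propG Q)) := Nat.finite_of_card_ne_zero (by omega)
  have : Nontrivial (outG Q (propG Q)) := Finite.one_lt_card_iff_nontrivial.1 (by omega)
  have : IsKleinFour (outG Q (propG Q)) := ⟨h1, (Monoid.exponent_eq_prime_iff Nat.prime_two).2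
    fun g hg => orderOf_eq_prime (h3 g) hg⟩
  exact exists_hom_of_outG IsKleinFour.nonempty_mulEquiv

theorem idg_inn_of_odd (h : negOG Q ∈ commutator (OG Q)) (hme : Odd m) :
    ∃ φ : IDg Q →* Multiplicative (ZMod 4),
      Function.Surjective φ ∧ φ.ker = (Inn (POmega F ⇑Q)).subgroupOf (IDg Q) := by
  have : Nonempty ι := Fintype.card_pos_iff.1 (by omega)
  have h24 := h24_five (F := F) h5
  have he : Even (Fintype.card ι) := ⟨m, by omega⟩
  have hp : s ∉ propG Q := by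
    rintro ⟨d, h1, h3⟩
    obtain ⟨v, hv⟩ := exists_Q_ne_zero_pi hQ
    have h4 := (h3 he).1
    rw [← hs.unique h1 hv, det_of_sq' hm hc hs2, hme.neg_pow, hm] at h4
    simp only [ne_eq, OfNat.ofNat_ne_zero, not_false_eq_true, mul_div_cancel_left₀] at h4
    have : (2 : F) * c ^ m = 0 := by linear_combination -h4
    simp [h2] at this
  obtain ⟨v, hv⟩ := exists_Q_ne_zero_pi hQ
  have hg := (mem_propG_or hQ h24 (hs.mem c.ne_zero) hv).resolve_left hp
  have h1 := card_outG_propG hQ h2 h5 he h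
  have : Finite (outG Q (propG Q)) := Nat.finite_of_card_ne_zero (by omega)
  let x : outG Q (propG Q) := ⟨_, mem_outG (g := ⟨_, propG_le hg⟩) hg⟩
  have h3 : x ^ 2 ≠ 1 := fun h4 => by
    have h6 : simOut Q ⟨_, propG_le hg⟩ * simOut Q ⟨_, propG_le hg⟩ = 1 :=
      (pow_two _).symm.trans (congrArg Subtype.val h4)
    rw [← map_mul, simOut_eq_one_iff hQ h5, Subgroup.coe_mul] at h6
    have h7 : s * ofOG Q (refl Q v) * (s * ofOG Q (refl Q v)) =
        glScalar ι F c * ofOG Q (reflProd Q [s.val *ᵥ v, v]) := by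
      have h8 : glScalar ι F c * ofOG Q (refl Q (s.val *ᵥ v)) =
          ofOG Q (refl Q (s.val *ᵥ v)) * glScalar ι F c := gl_ext fun w => by
        simp [← mulVec_mulVec, ofOG_mulVec, glScalar_mulVec]
      nth_rw 1 [conj_ofOG_refl hs c.ne_zero]
      rw [mul_assoc, ← mul_assoc s, hs2, ← mul_assoc, ← h8]
      simp [reflProd_cons, reflProd_nil, mul_assoc]
    rw [h7, glScalar_mul_mem_zom_iff hQ h, reflProd_mem_commutator_iff hQ h24
      (by simp [hs v, hv])] at h6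
    apply hc
    rw [← isSquare_mul_self_mul_iff hv]
    convert h6.2 using 1
    simp [hs v]; ring
  have h4 : orderOf x = 2 ^ 2 :=
    orderOf_eq_prime_pow (p := 2) (n := 1) (by simpa using h3) (by
      rw [show 2 ^ (1 + 1) = Nat.card (outG Q (propG Q)) by omega]; exact pow_card_eq_one')
  have : IsCyclic (outG Q (propG Q)) := isCyclic_of_orderOf_eq_card x (by omega)
  exact exists_hom_of_outG ⟨mulEquivOfCyclicCardEq (by simpa using h1)⟩

end CfsgLib.Inv2

namespace CfsgLib.Inv2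

open Module QuadraticMap Matrix CfsgLib.Orth CfsgLib.ClAut Cfsg

variable {F : Type*} [Field F]

theorem exists_gl_of_sq {ι : Type} [Fintype ι] [DecidableEq ι] (f : (ι → F) →ₗ[F] ι → F) (c : Fˣ)
    (h : ∀ v, f (f v) = (c : F) • v) :
    ∃ s : GL ι F, (∀ v, s.val *ᵥ v = f v) ∧ s * s = glScalar ι F c := by
  have h1 : LinearMap.toMatrix' f * LinearMap.toMatrix' f = (c : F) • 1 := by
    rw [← LinearMap.toMatrix'_mul, ← LinearMap.toMatrix'_one, ← map_smul]
    congr 1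
    exact LinearMap.ext h
  refine ⟨⟨LinearMap.toMatrix' f, ((c⁻¹ : Fˣ) : F) • LinearMap.toMatrix' f, by simp [h1, smul_smul],
    by simp [h1, smul_smul]⟩, fun v => by simp, gl_ext fun v => ?_⟩
  simp [h1, glScalar_mulVec, smul_mulVec]

theorem exists_sq_plus (m : ℕ) (c : Fˣ) : ∃ s : GL (Fin m ⊕ Fin m) F,
    IsMult (qPlus m F) s c ∧ s * s = glScalar _ F c := by
  obtain ⟨s, h1, h2⟩ := exists_gl_of_sq (F := F) (LinearMap.pi (Sum.elim
    (fun i : Fin m => (c : F) • LinearMap.proj (Sum.inr i : Fin m ⊕ Fin m))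
      fun i => LinearMap.proj (.inl i))) c fun v => by ext (i | i) <;> simp
  refine ⟨s, fun v => ?_, h2⟩
  simp only [h1, qPlus_apply, Finset.mul_sum]
  exact Finset.sum_congr rfl fun i _ => by simp; ring

theorem exists_sq_minus [Finite F] (m : ℕ) {a b : F} (hab : Aniso a b) (c : Fˣ) :
    ∃ s : GL ((Fin m ⊕ Fin m) ⊕ Fin 2) F, IsMult (qMinus m a b) s c ∧ s * s = glScalar _ F c := by
  obtain ⟨x, y, hw⟩ := hab.exists_eq c
  obtain ⟨s, h1, h2⟩ := exists_gl_of_sq (F := F) (LinearMap.pi (Sum.elim (Sum.elim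
    (fun i : Fin m => (c : F) • LinearMap.proj (.inl (.inr i) : (Fin m ⊕ Fin m) ⊕ Fin 2))
      fun i => LinearMap.proj (.inl (.inl i)))
      ![x • LinearMap.proj (.inr 0) + (a * x + b * y) • LinearMap.proj (.inr 1),
        y • LinearMap.proj (.inr 0) - x • LinearMap.proj (.inr 1)])) c fun v => by
    ext ((i | i) | i)
    · simp
    · simp
    · fin_cases i <;> simp [← hw] <;> ring
  refine ⟨s, fun v => ?_, h2⟩
  simp only [h1, qMinus_apply', mul_add, Finset.mul_sum]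
  congr 1
  · exact Finset.sum_congr rfl fun i _ => by simp; ring
  · simp [← hw]; ring

theorem two_ne_zero_of_odd [Fintype F] (h : Odd (Fintype.card F)) : (2 : F) ≠ 0 := fun h2 => by
  have := FiniteField.even_card_iff_char_two.1 (ringChar.eq_iff.2 (CharTwo.of_one_ne_zero_of_two_eq_zero
    one_ne_zero h2))
  rw [Nat.odd_iff] at h
  omega

theorem exists_unit_not_isSquare [Finite F] (h2 : (2 : F) ≠ 0) : ∃ c : Fˣ, ¬ IsSquare (c : F) := by
  obtain ⟨c, hc⟩ := FiniteField.exists_nonsquare (F := F) (fun h => h2 (by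
    have := ringChar.eq_iff.1 h
    exact CharTwo.two_eq_zero))
  exact ⟨Units.mk0 c (by rintro rfl; exact hc IsSquare.zero), hc⟩

end CfsgLib.Inv2
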